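-- Team project OPAR (S5989), package [CNTPAR] (helper61): in even dimension, for m < c and
-- m < n mod c the number of members (nondegenerate m-spaces isometric to W₀) is prime to r.
-- Instance of the generic machinery of Helper61.OEll.CntM (cong_gen / in_gen / witt_fix).
import Cfsg.Agent.Lib.Helper70.OPar.Defs
import Cfsg.Agent.Lib.Helper61.OEll.CntM

set_option autoImplicit false
open scoped MatrixGroups
open Matrix

namespace Cfsg.Agent.Lib.Helper61.OPar

open Cfsg.Agent.Lib.Helper23.OHyp Cfsg.Agent.Lib.Helper70.OPar Cfsg.Agent.Lib.Helper61.OHyp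
  Cfsg.Agent.Lib.Helper61.OEll

universe u

section

variable {F : Type u} [Field F] {ι : Type} [Fintype ι] [DecidableEq ι]

/-- The class of members is stable under the isometry group. -/
theorem tinv_mem (Q : (ι → F) → F) (W₀ : Submodule F (ι → F)) (m : ℕ) :
    TInv Q (Mem Q W₀ m) := by
  intro g hg W hW
  obtain ⟨hdim, hnd, e₀, he₀⟩ := hW
  refine ⟨(finrank_map_gl g W).trans hdim, nd_map_gl hg hnd, ?_⟩
  refine ⟨(Submodule.equivMapOfInjective _ (toLin_inj g) W).symm.trans e₀, fun y => ?_⟩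
  have h1 : ((Submodule.equivMapOfInjective _ (toLin_inj g) W)
      ((Submodule.equivMapOfInjective _ (toLin_inj g) W).symm y) : ι → F) = (y : ι → F) := by
    rw [LinearEquiv.apply_symm_apply]
  rw [Submodule.coe_equivMapOfInjective_apply, Matrix.toLin'_apply] at h1
  rw [LinearEquiv.trans_apply, he₀, ← h1, isom_apply hg]

end

/-- An isometry with `x ^ r = 1` whose fixed space has dimension `< c` and `> m`
(even dimension, from [EXEK]). -/
theorem cntx_even (hExeK : PkgExeK.{u}) (F : Type u) [Field F] [Fintype F] (ι : Type)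
    [Fintype ι] [DecidableEq ι] (Q : (ι → F) → F)
    (hQ : Cfsg.Geo.IsNondegenerateQuadraticForm Q) (h2 : (2 : F) ≠ 0)
    (heven : Even (Fintype.card ι)) (r : ℕ) (hr : r.Prime) (hr2 : r ≠ 2)
    (hrq : ¬ r ∣ Fintype.card F) (m : ℕ) (hm1 : 1 ≤ m) (hmc : m < cc (Fintype.card F) r)
    (hmk : m < Fintype.card ι % cc (Fintype.card F) r) :
    ∃ x : GL ι F, x ∈ Cfsg.isometryGroup F Q ∧ x ^ r = 1 ∧
      Module.finrank F (fixSp (x : Matrix ι ι F)) < cc (Fintype.card F) r ∧
      m < Module.finrank F (fixSp (x : Matrix ι ι F)) := by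
  have hcpos : 0 < cc (Fintype.card F) r := cc_pos (ordI_pos hr hrq)
  by_cases hcn : cc (Fintype.card F) r ≤ Fintype.card ι
  · have hmodn := Nat.div_add_mod (Fintype.card ι) (cc (Fintype.card F) r)
    have hJ1 : 1 ≤ Fintype.card ι / cc (Fintype.card F) r := Nat.div_pos hcn hcpos
    obtain ⟨x, hxiso, hxord, hxfix⟩ :=
      hExeK F ι Q hQ h2 heven r hr hr2 hrq _ hJ1 (by omega)
    have hlt := Nat.mod_lt (Fintype.card ι) hcpos
    refine ⟨x, hxiso, ?_, ?_, ?_⟩
    · rw [← hxord]; exact pow_orderOf_eq_one x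
    · omega
    · omega
  · push Not at hcn
    have h1 : fixSp (((1 : GL ι F)) : Matrix ι ι F) = ⊤ := by
      rw [Units.val_one]; exact fixSp_one
    refine ⟨1, one_mem _, one_pow r, ?_, ?_⟩
    · rw [h1, finrank_top, Module.finrank_fintype_fun_eq_card]; exact hcn
    · rw [h1, finrank_top, Module.finrank_fintype_fun_eq_card]
      rw [Nat.mod_eq_of_lt hcn] at hmk
      exact hmk

/-- [CNTPAR] -/
theorem pkgCntPar_of (hSplit : PkgSplit.{u}) (hDiv : PkgDiv.{u}) (hExeK : PkgExeK.{u})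
    (hEmb : PkgEmb.{u}) : PkgCntPar.{u} := by
  intro F _ _ ι _ _ Q hQ h2 heven r hr hr2 hrq W₀ m hm1 hW₀dim hW₀nd hmc hmk hdvd
  obtain ⟨x, hxiso, hxr, hxlt, hxm⟩ :=
    cntx_even hExeK F ι Q hQ h2 heven r hr hr2 hrq m hm1 hmc hmk
  have hrF : (r : F) ≠ 0 := natCast_ne_zero_of_not_dvd_card hr hrq
  have hpow : (x : Matrix ι ι F) ^ r = 1 := by
    rw [← Units.val_pow_eq_pow_val, hxr]; rfl
  have hS : Std Q r (x : Matrix ι ι F) := ⟨hQ, h2, hr, hr2, hrq, hrF, hpow, isom_of_mem hxiso⟩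
  obtain ⟨hNdFix, hNdMov, hPerp, hCompl, -, -⟩ := hSplit F ι Q r _ hS
  have hFix := pkgCntFix_of hSplit hDiv
  have hCauchy := Cfsg.Agent.Lib.Helper62.OHyp.pkgCntCauchy_of hSplit hDiv
  have hT := tinv_mem Q W₀ m
  have hcong := cong_gen Q _ hT r hr x hxiso hxr
  have hnin := in_gen hQ hr hNdMov hPerp hCompl _ hT
    (by
      obtain ⟨W', hW'C, hW'Nd, e, he⟩ :=
        hEmb F ι Q hQ h2 (fixSp (x : Matrix ι ι F)) W₀ hNdFix hW₀nd (by omega)
      exact ⟨W', ⟨e.finrank_eq.trans hW₀dim, hW'Nd, e, he⟩, hW'C⟩)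
    (by
      intro W W' hW hW' hWC hW'C
      obtain ⟨-, -, e₁, he₁⟩ := hW
      obtain ⟨-, -, e₂, he₂⟩ := hW'
      refine witt_fix hQ hPerp hCompl W W' hWC hW'C (e₁.trans e₂.symm) (fun w => ?_)
      have h3 := he₂ (e₂.symm (e₁ w))
      rw [LinearEquiv.apply_symm_apply] at h3
      rw [LinearEquiv.trans_apply, ← h3, he₁])
    (hCauchy F ι Q r _ hS hxlt)
  have hcard : Nat.card {W : {W : Submodule F (ι → F) // Mem Q W₀ m W} //
        Inv (x : Matrix ι ι F) W.1} =
      Nat.card (TIn (Mem Q W₀ m) (x : Matrix ι ι F)) := by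
    apply Nat.card_congr
    apply Equiv.subtypeEquivRight
    intro W
    constructor
    · intro hinv
      exact hFix F ι Q r _ hS W.1 W.2.2.1 hinv (by rw [W.2.1]; exact hmc)
    · intro hle v hv
      obtain ⟨w, hw, rfl⟩ := mem_map_gl.mp hv
      rw [mem_fixSp.mp (hle hw)]
      exact hw
  rw [hcard] at hcong
  have h0 := Nat.mod_eq_zero_of_dvd hdvd
  have h1 : Nat.card (TIn (Mem Q W₀ m) (x : Matrix ι ι F)) % r = 0 := by
    rw [← hcong]; exact h0
  exact hnin (Nat.dvd_of_mod_eq_zero h1)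

end Cfsg.Agent.Lib.Helper61.OPar
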